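import Cfsg.Agent.Lib.H15.MH0

/-!
# M. Hall's theorem (S4221), piece X5: the degree is eleven
-/

set_option autoImplicit false

namespace H71.MHX5

open H15.MH

universe u v

variable {G : Type u} {α : Type v} [Group G] [MulAction G α]

theorem card_eleven [Finite α] (h : Hyp3 G α)
    (hu : ∀ a b c d : α, D4 a b c d → ∀ s t : G, orderOf s = 2 → orderOf t = 2 →
      s • a = a → s • b = b → s • c = d → t • a = a → t • b = b → t • c = d → s = t)
    (hw : ∀ a b c d : α, D4 a b c d → ∀ s t : G, orderOf s = 2 → orderOf t = 2 →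
      s • a = b → s • c = d → t • a = b → t • c = d → s = t)
    (h4 : 4 < Nat.card α) : Nat.card α = 11 := by
  classical
  have : Fintype α := Fintype.ofFinite α
  rw [Nat.card_eq_fintype_card] at h4 ⊢
  -- two distinct points
  obtain ⟨a, b, hab⟩ : ∃ a b : α, a ≠ b := by
    have : 1 < Fintype.card α := by omega
    exact Fintype.one_lt_card_iff.mp this
  have hsq : ∀ x : G, orderOf x = 2 → ∀ c : α, x • x • c = c := by
    intro x hx c
    rw [← mul_smul, ← pow_two, ← hx, pow_orderOf_eq_one, one_smul]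
  set S : Set G := {x | orderOf x = 2 ∧ x • a = b} with hS
  have hSb : ∀ x ∈ S, x • b = a := by
    intro x hx
    rw [← hx.2, hsq x hx.1]
  -- `S` is finite
  have hfin : S.Finite := by
    let F : α × α → G := fun p =>
      if hp : ∃ x : G, x ∈ S ∧ p.1 ≠ p.2 ∧ x • p.1 = p.1 ∧ x • p.2 = p.2 then hp.choose else 1
    refine Set.Finite.subset (Set.finite_range F) ?_
    intro x hx
    obtain ⟨c, d, e, hcd, hce, hde, hfx⟩ := h.fx x hx.1
    have hc : x • c = c := (hfx c).mpr (Or.inl rfl)
    have hd : x • d = d := (hfx d).mpr (Or.inr (Or.inl rfl))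
    have hp : ∃ y : G, y ∈ S ∧ c ≠ d ∧ y • c = c ∧ y • d = d := ⟨x, hx, hcd, hc, hd⟩
    refine ⟨(c, d), ?_⟩
    have hF : F (c, d) = hp.choose := by
      simp only [F]
      exact dif_pos hp
    rw [hF]
    have hq := hp.choose_spec
    have hca : c ≠ a := by
      rintro rfl
      exact hab (hc.symm.trans hx.2)
    have hcb : c ≠ b := by
      rintro rfl
      exact hab ((hSb x hx).symm.trans hc)
    have hda : d ≠ a := by
      rintro rfl
      exact hab (hd.symm.trans hx.2)
    have hdb : d ≠ b := by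
      rintro rfl
      exact hab ((hSb x hx).symm.trans hd)
    exact hu c d a b ⟨hcd, hca, hcb, hda, hdb, hab⟩ _ _ hq.1.1 hx.1 hq.2.2.1 hq.2.2.2 hq.1.2 hc hd hx.2
  set I : Finset G := hfin.toFinset with hI
  have hmI : ∀ x : G, x ∈ I ↔ orderOf x = 2 ∧ x • a = b := by
    intro x
    rw [hI, Set.Finite.mem_toFinset]
    exact Iff.rfl
  set T : Finset α := (Finset.univ.erase a).erase b with hT
  have hmT : ∀ c : α, c ∈ T ↔ c ≠ b ∧ c ≠ a := by
    intro c
    simp [hT]
  have hTc : T.card = Fintype.card α - 2 := by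
    rw [hT, Finset.card_erase_of_mem (by simp [hab.symm]), Finset.card_erase_of_mem (Finset.mem_univ a),
      Finset.card_univ]
    omega
  have hmP : ∀ p : α × α, p ∈ T.offDiag ↔ (p.1 ≠ b ∧ p.1 ≠ a) ∧ (p.2 ≠ b ∧ p.2 ≠ a) ∧ p.1 ≠ p.2 := by
    intro p
    rw [Finset.mem_offDiag, hmT, hmT]
  -- facts on `I`
  have hI3 : ∀ x ∈ I, ∃ R : Finset α, R.card = 3 ∧ R ⊆ T ∧ ∀ c : α, x • c = c ↔ c ∈ R := by
    intro x hx
    rw [hmI] at hx
    obtain ⟨c, d, e, hcd, hce, hde, hfx⟩ := h.fx x hx.1
    refine ⟨{c, d, e}, ?_, ?_, ?_⟩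
    · rw [Finset.card_eq_three]
      exact ⟨c, d, e, hcd, hce, hde, rfl⟩
    · intro y hy
      have hy' : x • y = y := by
        rw [hfx]
        simpa using hy
      rw [hmT]
      constructor
      · rintro rfl
        exact hab ((hSb x hx).symm.trans hy')
      · rintro rfl
        exact hab (hy'.symm.trans hx.2)
    · intro y
      rw [hfx]
      simp
  -- first count
  have e1 : I.card * 6 = T.offDiag.card * 1 := by
    refine Finset.card_mul_eq_card_mul (fun (x : G) (p : α × α) => x • p.1 = p.1 ∧ x • p.2 = p.2) ?_ ?_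
    · intro x hx
      obtain ⟨R, hR3, hRT, hRm⟩ := hI3 x hx
      have : Finset.bipartiteAbove (fun (x : G) (p : α × α) => x • p.1 = p.1 ∧ x • p.2 = p.2)
          T.offDiag x = R.offDiag := by
        ext p
        rw [Finset.mem_bipartiteAbove, Finset.mem_offDiag, Finset.mem_offDiag]
        constructor
        · rintro ⟨⟨-, -, h3⟩, h1, h2⟩
          exact ⟨(hRm _).mp h1, (hRm _).mp h2, h3⟩
        · rintro ⟨h1, h2, h3⟩
          exact ⟨⟨hRT h1, hRT h2, h3⟩, (hRm _).mpr h1, (hRm _).mpr h2⟩
      rw [this, Finset.offDiag_card, hR3]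
    · intro p hp
      rw [hmP] at hp
      obtain ⟨⟨h1b, h1a⟩, ⟨h2b, h2a⟩, h12⟩ := hp
      obtain ⟨u, hu2, hup, huq, hua, hub⟩ := exists_u h.toHyp
        (⟨h12, h1a, h1b, h2a, h2b, hab⟩ : D4 p.1 p.2 a b)
      rw [Finset.card_eq_one]
      refine ⟨u, ?_⟩
      ext y
      rw [Finset.mem_bipartiteBelow, Finset.mem_singleton, hmI]
      constructor
      · rintro ⟨⟨hy2, hya⟩, hy1, hy3⟩
        exact hu p.1 p.2 a b ⟨h12, h1a, h1b, h2a, h2b, hab⟩ y u hy2 hu2 hy1 hy3 hya hup huq hua
      · rintro rfl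
        exact ⟨⟨hu2, hua⟩, hup, huq⟩
  -- second count
  have e2 : I.card * (Fintype.card α - 5) = T.offDiag.card * 1 := by
    refine Finset.card_mul_eq_card_mul (fun (x : G) (p : α × α) => x • p.1 = p.2) ?_ ?_
    · intro x hx
      obtain ⟨R, hR3, hRT, hRm⟩ := hI3 x hx
      rw [hmI] at hx
      have : Finset.bipartiteAbove (fun (x : G) (p : α × α) => x • p.1 = p.2)
          T.offDiag x = (T \ R).image (fun c => (c, x • c)) := by
        ext p
        rw [Finset.mem_bipartiteAbove, Finset.mem_offDiag, Finset.mem_image]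
        constructor
        · rintro ⟨⟨h1, h2, h3⟩, h4⟩
          refine ⟨p.1, ?_, ?_⟩
          · rw [Finset.mem_sdiff]
            refine ⟨h1, fun hR => h3 ?_⟩
            rw [← h4]
            exact ((hRm _).mpr hR).symm
          · exact Prod.ext rfl h4
        · rintro ⟨c, hc, rfl⟩
          rw [Finset.mem_sdiff] at hc
          refine ⟨⟨hc.1, ?_, ?_⟩, rfl⟩
          · have hc1 := (hmT c).mp hc.1
            show x • c ∈ T
            rw [hmT]
            constructor
            · intro h1
              apply hc1.2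
              have h2 := hsq x hx.1 c
              rw [h1, hSb x hx] at h2
              exact h2.symm
            · intro h1
              apply hc1.1
              have h2 := hsq x hx.1 c
              rw [h1, hx.2] at h2
              exact h2.symm
          · intro h1
            exact hc.2 ((hRm c).mp h1.symm)
      rw [this, Finset.card_image_of_injective _ (fun c d hcd => congrArg Prod.fst hcd),
        Finset.card_sdiff_of_subset hRT, hTc, hR3]
      omega
    · intro p hp
      rw [hmP] at hp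
      obtain ⟨⟨h1b, h1a⟩, ⟨h2b, h2a⟩, h12⟩ := hp
      have hD : D4 a b p.1 p.2 := ⟨hab, h1a.symm, h2a.symm, h1b.symm, h2b.symm, h12⟩
      have hD' : D4 b a p.2 p.1 := ⟨hab.symm, h2b.symm, h1b.symm, h2a.symm, h1a.symm, h12.symm⟩
      obtain ⟨g, g1, g2, g3, g4⟩ := h.tr a b p.1 p.2 b a p.2 p.1 hD hD'
      obtain ⟨u, huu, hux⟩ := exists_pow h.toHyp hD g (by rw [g1, g2]) (by rw [g2, g1])
        (by rw [g3, g4]) (by rw [g4, g3])
      have hua : u • a = b := by rw [hux a (by rw [g1, g2]), g1]
      have hup : u • p.1 = p.2 := by rw [hux p.1 (by rw [g3, g4]), g3]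
      have hu1 : u ≠ 1 := by
        rintro rfl
        rw [one_smul] at hua
        exact hab hua
      have hu2 : orderOf u = 2 := orderOf_eq_prime (by rw [pow_two]; exact huu) hu1
      rw [Finset.card_eq_one]
      refine ⟨u, ?_⟩
      ext y
      rw [Finset.mem_bipartiteBelow, Finset.mem_singleton, hmI]
      constructor
      · rintro ⟨⟨hy2, hya⟩, hy1⟩
        exact hw a b p.1 p.2 hD y u hy2 hu2 hya hy1 hua hup
      · rintro rfl
        exact ⟨⟨hu2, hua⟩, hup⟩
  -- conclusion
  have hpos : 0 < T.offDiag.card := by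
    rw [Finset.offDiag_card, hTc]
    have h5 : 3 ≤ Fintype.card α - 2 := by omega
    have : Fintype.card α - 2 < (Fintype.card α - 2) * (Fintype.card α - 2) := by nlinarith
    omega
  have hIpos : 0 < I.card := by
    rcases Nat.eq_zero_or_pos I.card with h0 | h0
    · rw [h0] at e1
      omega
    · exact h0
  have e3 : I.card * (Fintype.card α - 5) = I.card * 6 := by rw [e1, e2]
  have e4 : Fintype.card α - 5 = 6 := Nat.eq_of_mul_eq_mul_left hIpos e3
  omega

end H71.MHX5
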