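import Mathlib

/-!
# M. Hall's theorem (S4221), piece X7: the small degrees
-/

set_option autoImplicit false

namespace H71.MHX7

variable {α : Type*} [Fintype α] [DecidableEq α]

theorem eq_alt {G : Subgroup (Equiv.Perm α)} (hle : alternatingGroup α ≤ G) (x : Fin 4 ↪ α)
    (hodd : Odd (Nat.card (MulAction.stabilizer G x))) (h6 : 6 ≤ Fintype.card α) :
    G = alternatingGroup α := by
  by_contra hne
  obtain ⟨g, hg, hg'⟩ : ∃ g ∈ G, g ∉ alternatingGroup α := by
    by_contra hcon
    push Not at hcon
    exact hne (le_antisymm hcon hle)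
  have hsg : Equiv.Perm.sign g = -1 := by
    rw [Equiv.Perm.mem_alternatingGroup] at hg'
    rcases Int.units_eq_one_or (Equiv.Perm.sign g) with h | h
    · exact absurd h hg'
    · exact h
  have htop : ∀ k : Equiv.Perm α, k ∈ G := by
    intro k
    rcases Int.units_eq_one_or (Equiv.Perm.sign k) with h | h
    · exact hle (Equiv.Perm.mem_alternatingGroup.mpr h)
    · have h1 : k * g ∈ G := hle (Equiv.Perm.mem_alternatingGroup.mpr (by rw [Equiv.Perm.sign_mul, h, hsg]; rfl))
      have := G.mul_mem h1 (G.inv_mem hg)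
      simpa using this
  -- two points outside the range
  have hc : 1 < ((Finset.univ.image x)ᶜ : Finset α).card := by
    rw [Finset.card_compl, Finset.card_image_of_injective _ x.injective, Finset.card_univ, Fintype.card_fin]
    omega
  obtain ⟨a, ha, b, hb, hab⟩ := Finset.one_lt_card.mp hc
  have hax : ∀ i, x i ≠ a := by
    intro i hi
    rw [Finset.mem_compl] at ha
    exact ha (Finset.mem_image.mpr ⟨i, Finset.mem_univ _, hi⟩)
  have hbx : ∀ i, x i ≠ b := by
    intro i hi
    rw [Finset.mem_compl] at hb
    exact hb (Finset.mem_image.mpr ⟨i, Finset.mem_univ _, hi⟩)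
  let s : G := ⟨Equiv.swap a b, htop _⟩
  have hs : s ∈ MulAction.stabilizer G x := by
    rw [MulAction.mem_stabilizer_iff]
    ext i
    show Equiv.swap a b (x i) = x i
    exact Equiv.swap_apply_of_ne_of_ne (hax i) (hbx i)
  have h2 : orderOf (⟨s, hs⟩ : MulAction.stabilizer G x) = 2 := by
    apply orderOf_eq_prime
    · apply Subtype.ext
      apply Subtype.ext
      show (Equiv.swap a b) ^ 2 = 1
      rw [pow_two, Equiv.swap_mul_self]
    · intro h
      have h1 : Equiv.swap a b = 1 := congrArg (fun y : MulAction.stabilizer G x => ((y : G) : Equiv.Perm α)) h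
      apply hab
      have := Equiv.swap_apply_left a b
      rw [h1] at this
      exact this
  have h3 : 2 ∣ Nat.card (MulAction.stabilizer G x) := h2 ▸ orderOf_dvd_natCard _
  exact (Nat.not_even_iff_odd.mpr hodd) (even_iff_two_dvd.mpr h3)

theorem small (G : Subgroup (Equiv.Perm α)) (hG : MulAction.IsMultiplyPretransitive G α 4)
    (x : Fin 4 ↪ α) (hodd : Odd (Nat.card (MulAction.stabilizer G x))) (h6 : Fintype.card α ≤ 6) :
    ((Fintype.card α = 4 ∨ Fintype.card α = 5) ∧ G = ⊤) ∨ (Fintype.card α = 6 ∧ G = alternatingGroup α) := by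
  have h4 : 4 ≤ Fintype.card α := by
    have := Fintype.card_le_of_embedding x
    rwa [Fintype.card_fin] at this
  have hle : ∀ m, m ≤ 4 → MulAction.IsMultiplyPretransitive G α m := by
    intro m hm
    exact MulAction.isMultiplyPretransitive_of_le (n := 4) hm (by rw [Nat.card_eq_fintype_card]; exact h4)
  rcases (by omega : Fintype.card α = 4 ∨ Fintype.card α = 5 ∨ Fintype.card α = 6) with h | h | h
  · left
    refine ⟨Or.inl h, Equiv.Perm.eq_top_of_isMultiplyPretransitive ?_⟩
    apply hle
    rw [Nat.card_eq_fintype_card, h]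
    norm_num
  · left
    refine ⟨Or.inr h, Equiv.Perm.eq_top_of_isMultiplyPretransitive ?_⟩
    apply hle
    rw [Nat.card_eq_fintype_card, h]
  · right
    refine ⟨h, eq_alt (IsMultiplyPretransitive.alternatingGroup_le α G (hle _ ?_)) x hodd h.ge⟩
    rw [Nat.card_eq_fintype_card, h]

omit [Fintype α] [DecidableEq α] in
/-- the stabilizer of an embedding is the fixing subgroup of its range -/
theorem stab_eq (G : Subgroup (Equiv.Perm α)) (x : Fin 4 ↪ α) :
    MulAction.stabilizer G x = fixingSubgroup G (Set.range x) := by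
  ext g
  rw [MulAction.mem_stabilizer_iff, mem_fixingSubgroup_iff]
  constructor
  · rintro h _ ⟨i, rfl⟩
    exact congrArg (fun y : Fin 4 ↪ α => y i) h
  · intro h
    ext i
    exact h (x i) ⟨i, rfl⟩

theorem card_eq (G : Subgroup (Equiv.Perm α)) (hG : MulAction.IsMultiplyPretransitive G α 4)
    (x : Fin 4 ↪ α) :
    Nat.card G * (Fintype.card α - 4).factorial = (Fintype.card α).factorial * Nat.card (MulAction.stabilizer G x) := by
  have hs : (Set.range x).ncard = 4 := by
    rw [← Set.image_univ, Set.ncard_image_of_injective _ x.injective, Set.ncard_univ, Nat.card_eq_fintype_card,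
      Fintype.card_fin]
  have h1 := hG.index_of_fixingSubgroup_mul hs
  rw [Nat.card_eq_fintype_card] at h1
  rw [← h1, ← stab_eq, ← Subgroup.card_mul_index (MulAction.stabilizer G x)]
  ring

theorem final11 (G : Subgroup (Equiv.Perm α)) (hG : MulAction.IsMultiplyPretransitive G α 4)
    (ht : ∀ x : Fin 4 ↪ α, Nat.card (MulAction.stabilizer G x) = 1) (h11 : Fintype.card α = 11) :
    Nat.card G = 7920 := by
  have e : Fin 11 ≃ α := (Fintype.equivFinOfCardEq h11).symm
  let x : Fin 4 ↪ α := (Fin.castLEEmb (by norm_num : 4 ≤ 11)).trans e.toEmbedding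
  have h1 := card_eq G hG x
  rw [ht, h11] at h1
  have h2 : (11 - 4).factorial = 5040 := by decide
  have h3 : (11).factorial = 39916800 := by decide
  rw [h2, h3] at h1
  omega

theorem final7 (G : Subgroup (Equiv.Perm α)) (hG : MulAction.IsMultiplyPretransitive G α 4)
    (h7 : Fintype.card α = 7) (x : Fin 4 ↪ α) (hodd : Odd (Nat.card (MulAction.stabilizer G x)))
    (h3 : 3 ∣ Nat.card (MulAction.stabilizer G x)) : G = alternatingGroup α := by
  refine eq_alt ?_ x hodd (by omega)
  apply Equiv.Perm.alternatingGroup_le_of_index_le_two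
  have h1 := card_eq G hG x
  rw [h7] at h1
  have h2 : (7 - 4).factorial = 6 := by decide
  have h4 : (7).factorial = 5040 := by decide
  rw [h2, h4] at h1
  obtain ⟨k, hk⟩ := h3
  have hk0 : 0 < k := by
    rcases Nat.eq_zero_or_pos k with h0 | h0
    · rw [h0, mul_zero] at hk
      have := Nat.card_pos (α := MulAction.stabilizer G x)
      omega
    · exact h0
  rw [hk] at h1
  have h5 : Nat.card G = 2520 * k := by omega
  have h6 := Subgroup.card_mul_index G
  rw [Nat.card_perm, Nat.card_eq_fintype_card (α := α), h7, h4, h5] at h6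
  have h8 : k * G.index = 2 := by
    have : 2520 * (k * G.index) = 2520 * 2 := by rw [← mul_assoc, h6]
    exact Nat.eq_of_mul_eq_mul_left (by norm_num) this
  calc G.index ≤ k * G.index := Nat.le_mul_of_pos_left _ hk0
    _ = 2 := h8

end H71.MHX7
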